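import Mathlib
import Cfsg.Agent.Bimonster54.Words
import Cfsg.Agent.Bimonster54.Data.A1
import Cfsg.Agent.Bimonster54.Data.A2
import Cfsg.Agent.Bimonster54.Data.A3
import Cfsg.Agent.Bimonster54.Data.A4
import Cfsg.Agent.Bimonster54.Data.D5
import Cfsg.Agent.Bimonster54.Data.E6
import Cfsg.Agent.Bimonster54.Data.Y222
import Cfsg.Agent.Bimonster54.Data.Y322
import Cfsg.Agent.Bimonster54.Data.Y422
import Cfsg.Agent.Bimonster54.Data.ZETA
import Cfsg.Agent.Bimonster54.Data.T3

/-!
The spider relation makes the end node of the long arm a power of a Coxeter element.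
-/

set_option autoImplicit false
set_option maxRecDepth 20000

namespace CfsgLib.Bimonster54

/-- The nine free generators. -/
def free9 (x : ℕ) : FreeGroup (Fin 9) := if h : x < 9 then FreeGroup.of ⟨x, h⟩ else 1

/-- The relators on nine nodes. -/
def rels9 : Set (FreeGroup (Fin 9)) := {r | ∃ l ∈ coxList 9 ++ [spA], r = evW free9 l}

/-- The group on nine nodes with the spider relation. -/
abbrev A9 : Type := PresentedGroup rels9

/-- Its generators. -/
def gam9 (x : ℕ) : A9 := PresentedGroup.mk rels9 (free9 x)

theorem evW_hom {G H : Type*} [Group G] [Group H] (f : G →* H) (γ : ℕ → G) :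
    ∀ l : List ℕ, f (evW γ l) = evW (fun x => f (γ x)) l
  | [] => map_one f
  | x :: l => by rw [evW, map_mul, evW_hom f γ l, evW]

theorem gam9_rel {l : List ℕ} (hl : l ∈ coxList 9 ++ [spA]) : evW gam9 l = 1 := by
  show evW (fun x => PresentedGroup.mk rels9 (free9 x)) l = 1
  rw [← evW_hom]
  exact PresentedGroup.one_of_mem ⟨l, hl, rfl⟩

theorem coxWord_mem {n i j : ℕ} (hi : i < n) (hj : j < n) : coxWord i j ∈ coxList n := by
  simp only [coxList, List.mem_flatMap, List.mem_range, List.mem_map]
  exact ⟨i, hi, j, hj, rfl⟩

theorem evW_self {G : Type*} [Group G] {γ : ℕ → G} {i : ℕ} (h : evW γ (coxWord i i) = 1) :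
    γ i * γ i = 1 := by
  simpa [coxWord, label, evW] using h

theorem gam9_invol (x : ℕ) : gam9 x * gam9 x = 1 := by
  by_cases hx : x < 9
  · exact evW_self (gam9_rel (List.mem_append_left _ (coxWord_mem hx hx)))
  · simp [gam9, free9, hx]

theorem mperm_large {g : ℕ} (hg : 9 ≤ g) : mperm g = 1 := by
  refine Equiv.ext fun v => funext fun j => ?_
  show v j + 2 * form g v * (alpha g j.val : ZMod 3) = v j
  rw [alpha_large hg, Nat.cast_zero, mul_zero, add_zero]

theorem lift_free9 (x : ℕ) :
    FreeGroup.lift (fun k : Fin 9 => mperm k.val) (free9 x) = mperm x := by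
  by_cases hx : x < 9
  · simp [free9, hx]
  · simp [free9, hx, mperm_large (Nat.le_of_not_lt hx)]

theorem lift_rels9 : ∀ r ∈ rels9, FreeGroup.lift (fun k : Fin 9 => mperm k.val) r = 1 := by
  rintro r ⟨l, hl, rfl⟩
  rw [evW_hom, funext lift_free9]
  have h : (coxList 9 ++ [spA]).all (fun l => sameAct l []) = true := by decide +kernel
  exact sameAct_sound (List.all_eq_true.1 h l hl)

/-- The action on the model. -/
def phi9 : A9 →* Equiv.Perm V := PresentedGroup.toGroup lift_rels9

theorem phi9_gam9 (x : ℕ) : phi9 (gam9 x) = mperm x := by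
  refine Eq.trans ?_ (lift_free9 x)
  rfl

theorem rels_of_sub {L : List (List ℕ)} (h : subWords L (coxList 9 ++ [spA]) = true) :
    ∀ r ∈ L, evW gam9 r = 1 := fun r hr => gam9_rel (subWords_spec h r hr)

theorem faithful222 : FaithfulOn phi9 gam9 [0, 1, 2, 5, 6, 7, 8] :=
  Y222.climb gam9_invol phi9_gam9 (rels_of_sub (by decide +kernel))
    (E6.climb gam9_invol phi9_gam9 (rels_of_sub (by decide +kernel))
      (D5.climb gam9_invol phi9_gam9 (rels_of_sub (by decide +kernel))
        (A4.climb gam9_invol phi9_gam9 (rels_of_sub (by decide +kernel))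
          (A3.climb gam9_invol phi9_gam9 (rels_of_sub (by decide +kernel))
            (A2.climb gam9_invol phi9_gam9 (rels_of_sub (by decide +kernel))
              (A1.climb gam9_invol phi9_gam9 (rels_of_sub (by decide +kernel))
                (faithfulOn_nil _ _)))))))

/-- The relators available in the group on nine nodes. -/
def known9 : List (List ℕ) := coxList 9 ++ [spA] ++ (spB :: shortRels)

theorem known9_rel : ∀ r ∈ known9, evW gam9 r = 1 := by
  intro r hr
  rcases List.mem_append.1 hr with hr | hr
  · exact gam9_rel hr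
  · have h : (spB :: shortRels).all (fun l => l.all (memN · [0, 1, 2, 5, 6, 7, 8]) && sameAct l [])
        = true := by decide +kernel
    have h' := List.all_eq_true.1 h r hr
    rw [Bool.and_eq_true] at h'
    exact eq_of_sameAct gam9_invol phi9_gam9 faithful222 h'.1 rfl h'.2

theorem faithful422 : FaithfulOn phi9 gam9 [0, 1, 2, 3, 4, 5, 6, 7, 8] :=
  Y422.climb gam9_invol phi9_gam9
    (fun r hr => known9_rel r
      (subWords_spec (a := Y422.rels) (b := known9) (by decide +kernel) r hr))
    (Y322.climb gam9_invol phi9_gam9
      (fun r hr => known9_rel r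
        (subWords_spec (a := Y322.rels) (b := known9) (by decide +kernel) r hr))
      faithful222)

theorem same9 (a b : List ℕ) (ha : small a = true) (hb : small b = true)
    (h : sameAct a b = true) : evW gam9 a = evW gam9 b := by
  refine eq_of_sameAct gam9_invol phi9_gam9 faithful422 ?_ ?_ h
  all_goals
    simp only [List.all_eq_true, memN_iff]
    intro x hx
  on_goal 1 => have hx9 : x < 9 := by simpa [Nat.blt_eq] using List.all_eq_true.1 ha x hx
  on_goal 2 => have hx9 : x < 9 := by simpa [Nat.blt_eq] using List.all_eq_true.1 hb x hx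
  all_goals
    interval_cases x <;> simp

section Target

variable {G : Type*} [Group G] {γ : ℕ → G}

/-- The map from the group on nine nodes. -/
theorem exists_map (hrel : ∀ r ∈ coxList 11 ++ [spA], evW γ r = 1) :
    ∃ f : A9 →* G, ∀ x, x < 9 → f (gam9 x) = γ x := by
  have hl : ∀ x, FreeGroup.lift (fun k : Fin 9 => γ k.val) (free9 x) =
      if x < 9 then γ x else 1 := by
    intro x
    by_cases hx : x < 9 <;> simp [free9, hx]
  have h : ∀ r ∈ rels9, FreeGroup.lift (fun k : Fin 9 => γ k.val) r = 1 := by
    rintro r ⟨l, hl', rfl⟩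
    rw [evW_hom, funext hl]
    have hs : small l = true := by
      have : (coxList 9 ++ [spA]).all small = true := by decide +kernel
      exact List.all_eq_true.1 this l hl'
    have he : evW (fun x => if x < 9 then γ x else 1) l = evW γ l := by
      clear hl'
      induction l with
      | nil => rfl
      | cons x l ih =>
        simp only [small, List.all_cons, Bool.and_eq_true, Nat.blt_eq] at hs
        rw [evW, evW, ih hs.2, if_pos hs.1]
    rw [he]
    exact hrel l (subWords_spec (a := coxList 9 ++ [spA]) (b := coxList 11 ++ [spA])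
      (by decide +kernel) l hl')
  refine ⟨PresentedGroup.toGroup h, fun x hx => ?_⟩
  show FreeGroup.lift (fun k : Fin 9 => γ k.val) (free9 x) = γ x
  rw [hl, if_pos hx]

theorem map_word {f : A9 →* G} (hf : ∀ x, x < 9 → f (gam9 x) = γ x) :
    ∀ {l : List ℕ}, small l = true → f (evW gam9 l) = evW γ l
  | [], _ => map_one f
  | x :: l, h => by
    simp only [small, List.all_cons, Bool.and_eq_true, Nat.blt_eq] at h
    rw [evW, map_mul, hf x h.1, map_word hf h.2, evW]

/-- The relators available on eleven nodes. -/
def known11 : List (List ℕ) := coxList 11 ++ [spA] ++ (spB :: shortRels)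

theorem known11_rel (hrel : ∀ r ∈ coxList 11 ++ [spA], evW γ r = 1) :
    ∀ r ∈ known11, evW γ r = 1 := by
  intro r hr
  rcases List.mem_append.1 hr with hr | hr
  · exact hrel r hr
  · obtain ⟨f, hf⟩ := exists_map hrel
    have hs : (spB :: shortRels).all small = true := by decide +kernel
    rw [← map_word hf (List.all_eq_true.1 hs r hr),
      known9_rel r (List.mem_append_right _ hr), map_one]

theorem spider_other (hrel : ∀ r ∈ coxList 11 ++ [spA], evW γ r = 1) : evW γ spB = 1 :=
  known11_rel hrel spB (List.mem_append_right _ List.mem_cons_self)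

/-- The end node of the long arm is the ninth power of the Coxeter element of the seven node
subsystem. -/
theorem end_node (hγ : ∀ x, γ x * γ x = 1) (hrel : ∀ r ∈ coxList 11 ++ [spA], evW γ r = 1) :
    γ 10 = evW γ zed := by
  obtain ⟨f, hf⟩ := exists_map hrel
  have hsame : ∀ a b : List ℕ, small a = true → small b = true → sameAct a b = true →
      evW γ a = evW γ b := fun a b ha hb h => by
    rw [← map_word hf ha, ← map_word hf hb, same9 a b ha hb h]
  have hk := known11_rel hrel
  have hz : evW γ zeta = 1 :=
    ZETA.identity hγ hsame (fun r hr => hk r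
      (subWords_spec (a := ZETA.rels) (b := known11) (by decide +kernel) r hr))
  have h3 : evW γ (List.replicate 3 (10 :: theta)).flatten = 1 :=
    T3.identity hγ hsame (fun r hr => hk r
      (subWords_spec (a := T3.rels) (b := known11) (by decide +kernel) r hr))
  have ht : evW γ theta = evW γ zed := by
    rw [hsame theta (zed ++ zeta) (by decide +kernel) (by decide +kernel) (by decide +kernel),
      evW_append, hz, mul_one]
  have hzz : evW γ zed * evW γ zed = 1 := by
    rw [← evW_append]
    exact hsame _ [] (by decide +kernel) rfl (by decide +kernel)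
  have hc : Commute (γ 10) (evW γ zed) := by
    have hx : ∀ x ∈ zed, Commute (γ 10) (γ x) := by
      intro x hx
      have hx' : label 10 x = 2 ∧ x < 11 := by
        have : zed.all (fun y => Nat.beq (label 10 y) 2 && Nat.blt y 11) = true := by decide +kernel
        have h := List.all_eq_true.1 this x hx
        simp only [Bool.and_eq_true, Nat.blt_eq] at h
        exact ⟨Nat.eq_of_beq_eq_true h.1, h.2⟩
      have h := hrel _ (List.mem_append_left _ (coxWord_mem (by omega : (10 : ℕ) < 11) hx'.2))
      simp only [coxWord, hx'.1, List.replicate, List.flatten_cons, List.flatten_nil,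
        List.append_nil, List.cons_append, List.nil_append, evW, mul_one] at h
      rw [← mul_assoc, mul_eq_one_iff_eq_inv, mul_inv_rev] at h
      rw [inv_eq_of_mul_eq_one_right (hγ x), inv_eq_of_mul_eq_one_right (hγ 10)] at h
      exact h
    generalize hl : zed = l at hx ⊢
    clear hl
    induction l with
    | nil => exact Commute.one_right _
    | cons y l ih =>
      exact (hx y List.mem_cons_self).mul_right (ih fun x h => hx x (List.mem_cons_of_mem _ h))
  simp only [List.replicate, List.flatten_cons, List.flatten_nil, List.append_nil, List.cons_append,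
    evW, evW_append, ht] at h3
  have h2 : γ 10 * evW γ zed * (γ 10 * evW γ zed) = 1 := by
    rw [hc.symm.mul_mul_mul_comm, hγ, hzz, one_mul]
  have h1 : γ 10 * evW γ zed = 1 := by
    calc γ 10 * evW γ zed = γ 10 * evW γ zed * (γ 10 * evW γ zed * (γ 10 * evW γ zed)) := by
          rw [h2, mul_one]
      _ = 1 := by simpa only [mul_assoc] using h3
  rw [mul_eq_one_iff_eq_inv] at h1
  rw [h1, inv_eq_of_mul_eq_one_right hzz]

end Target

end CfsgLib.Bimonster54
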