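import Mathlib
import Cfsg.Prelude.Def_Spor_M
import Cfsg.Agent.Bimonster54.Main

/-!
The six arm relations of the graph with three arms follow from the spider relation.
-/

set_option autoImplicit false
set_option maxRecDepth 20000

namespace CfsgLib.Bimonster54

open Cfsg.Spor in
/-- The presented group with the spider relation only. -/
abbrev Spider : Type :=
  PresentedGroup (coxRelators Bimonster.edges ∪
    {r' | r' ∈ [(Bimonster.a * Bimonster.b1 * Bimonster.c1 * Bimonster.a * Bimonster.b2 *
      Bimonster.c2 * Bimonster.a * Bimonster.b3 * Bimonster.c3) ^ 10]})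

/-- The image of a node. -/
def gx (g : Cfsg.Spor.Bimonster.Gen) : Spider := PresentedGroup.mk _ (FreeGroup.of g)

section

open Cfsg.Spor.Bimonster.Gen

/-- The six ways to place eleven nodes on the graph. -/
def places : List (List Cfsg.Spor.Bimonster.Gen) :=
  [[a, b1, c1, d1, e1, b2, c2, b3, c3, d2, f1],
   [a, b1, c1, d1, e1, b3, c3, b2, c2, d3, f1],
   [a, b2, c2, d2, e2, b1, c1, b3, c3, d1, f2],
   [a, b2, c2, d2, e2, b3, c3, b1, c1, d3, f2],
   [a, b3, c3, d3, e3, b1, c1, b2, c2, d1, f3],
   [a, b3, c3, d3, e3, b2, c2, b1, c1, d2, f3]]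

/-- A node of one placement. -/
def place (P : List Cfsg.Spor.Bimonster.Gen) (x : ℕ) : Cfsg.Spor.Bimonster.Gen := P.getD x a

end

/-- The generators of one placement, trivial beyond eleven. -/
def gamP (P : List Cfsg.Spor.Bimonster.Gen) (x : ℕ) : Spider :=
  if x < 11 then gx (place P x) else 1

/-- A placement keeps the Coxeter labels. -/
def placeOK (P : List Cfsg.Spor.Bimonster.Gen) : Bool :=
  (List.range 11).all fun i =>
    decide (place P i ∈ Cfsg.Spor.coxNodes Cfsg.Spor.Bimonster.edges) &&
    (List.range 11).all fun j =>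
      Nat.beq (Cfsg.Spor.coxLabel Cfsg.Spor.Bimonster.edges (place P i) (place P j)) (label i j)

theorem places_ok : ∀ P ∈ places, placeOK P = true := by decide +kernel

theorem gx_pow {i j : Cfsg.Spor.Bimonster.Gen}
    (hi : i ∈ Cfsg.Spor.coxNodes Cfsg.Spor.Bimonster.edges)
    (hj : j ∈ Cfsg.Spor.coxNodes Cfsg.Spor.Bimonster.edges) :
    (gx i * gx j) ^ Cfsg.Spor.coxLabel Cfsg.Spor.Bimonster.edges i j = 1 := by
  rw [gx, gx, ← map_mul, ← map_pow]
  exact PresentedGroup.one_of_mem (Or.inl ⟨i, hi, j, hj, rfl⟩)

theorem evW_pair {G : Type*} [Group G] (γ : ℕ → G) (i j : ℕ) :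
    ∀ m : ℕ, evW γ (List.replicate m [i, j]).flatten = (γ i * γ j) ^ m
  | 0 => (pow_zero _).symm
  | m + 1 => by
    rw [List.replicate_succ, List.flatten_cons, evW_append, evW_pair γ i j m, pow_succ']
    simp [evW]

theorem evW_repeat {G : Type*} [Group G] (γ : ℕ → G) (l : List ℕ) :
    ∀ m : ℕ, evW γ (List.replicate m l).flatten = evW γ l ^ m
  | 0 => (pow_zero _).symm
  | m + 1 => by rw [List.replicate_succ, List.flatten_cons, evW_append, evW_repeat γ l m, pow_succ']

theorem gamP_cox {P : List Cfsg.Spor.Bimonster.Gen} (hP : P ∈ places) :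
    ∀ r ∈ coxList 11, evW (gamP P) r = 1 := by
  intro r hr
  simp only [coxList, List.mem_flatMap, List.mem_range, List.mem_map] at hr
  obtain ⟨i, hi, j, hj, rfl⟩ := hr
  have h := List.all_eq_true.1 (places_ok P hP) i (List.mem_range.2 hi)
  simp only [Bool.and_eq_true, decide_eq_true_eq, List.all_eq_true] at h
  have hj' := List.all_eq_true.1 (places_ok P hP) j (List.mem_range.2 hj)
  simp only [Bool.and_eq_true, decide_eq_true_eq] at hj'
  rw [coxWord, evW_pair, gamP, gamP, if_pos hi, if_pos hj,
    ← Nat.eq_of_beq_eq_true (h.2 j (List.mem_range.2 hj))]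
  exact gx_pow h.1 hj'.1

theorem gamP_invol {P : List Cfsg.Spor.Bimonster.Gen} (hP : P ∈ places) (x : ℕ) :
    gamP P x * gamP P x = 1 := by
  by_cases hx : x < 11
  · exact evW_self (gamP_cox hP _ (coxWord_mem hx hx))
  · simp [gamP, hx]

/-- The value of a word of generators. -/
def evG : List Cfsg.Spor.Bimonster.Gen → Spider
  | [] => 1
  | g :: l => gx g * evG l

theorem evG_append : ∀ a b, evG (a ++ b) = evG a * evG b
  | [], b => by rw [List.nil_append, evG, one_mul]
  | x :: a, b => by
    rw [List.cons_append, evG, evG, evG_append a b]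
    exact (mul_assoc _ _ _).symm

theorem evW_gamP (P : List Cfsg.Spor.Bimonster.Gen) :
    ∀ l : List ℕ, (l.all fun x => Nat.blt x 11) = true → evW (gamP P) l = evG (l.map (place P))
  | [], _ => rfl
  | x :: l, h => by
    simp only [List.all_cons, Bool.and_eq_true, Nat.blt_eq] at h
    rw [evW, gamP, if_pos h.1, evW_gamP P l h.2, List.map_cons, evG]

theorem evG_rotate {l : List Cfsg.Spor.Bimonster.Gen} (h : evG l = 1) (k : ℕ) :
    evG (l.rotate k) = 1 := by
  rw [List.rotate_eq_drop_append_take_mod, evG_append]
  rw [← List.take_append_drop (k % l.length) l, evG_append] at h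
  exact mul_eq_one_comm.1 h

section

open Cfsg.Spor.Bimonster.Gen

theorem spider_rel : evW (gamP [a, b1, c1, d1, e1, b2, c2, b3, c3, d2, f1]) spA = 1 := by
  rw [spA, evW_repeat]
  simp only [evW, gamP, place, if_pos (show (0 : ℕ) < 11 by decide),
    if_pos (show (1 : ℕ) < 11 by decide), if_pos (show (2 : ℕ) < 11 by decide),
    if_pos (show (5 : ℕ) < 11 by decide), if_pos (show (6 : ℕ) < 11 by decide),
    if_pos (show (7 : ℕ) < 11 by decide), if_pos (show (8 : ℕ) < 11 by decide),
    List.getD_cons_zero, List.getD_cons_succ, gx, mul_one, ← map_mul, ← map_pow]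
  refine PresentedGroup.one_of_mem (Or.inr ?_)
  simp only [Set.mem_setOf_eq, List.mem_singleton, mul_assoc]

end

/-- The identity placement. -/
def place0 : List Cfsg.Spor.Bimonster.Gen := places.getD 0 []

theorem place0_rels : ∀ r ∈ coxList 11 ++ [spA], evW (gamP place0) r = 1 := by
  intro r hr
  rcases List.mem_append.1 hr with hr | hr
  · exact gamP_cox List.mem_cons_self r hr
  · rw [List.mem_singleton.1 hr]
    exact spider_rel

/-- Each placed spider is a rotation of one of the two spiders of the identity placement. -/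
def spiderTurns (P : List Cfsg.Spor.Bimonster.Gen) : Bool :=
  [0, 3, 6].any fun k =>
    decide (spA.map (place P) = (spA.map (place place0)).rotate k) ||
      decide (spA.map (place P) = (spB.map (place place0)).rotate k)

theorem spiderTurns_ok : ∀ P ∈ places, spiderTurns P = true := by decide +kernel

theorem placed_end {P : List Cfsg.Spor.Bimonster.Gen} (hP : P ∈ places) :
    gamP P 10 = evW (gamP P) zed := by
  refine end_node (gamP_invol hP) fun r hr => ?_
  rcases List.mem_append.1 hr with hr | hr
  · exact gamP_cox hP r hr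
  · rw [List.mem_singleton.1 hr]
    have hs : (spA.all fun x => Nat.blt x 11) = true := by decide +kernel
    have hs' : (spB.all fun x => Nat.blt x 11) = true := by decide +kernel
    have hA : evG (spA.map (place place0)) = 1 := by
      rw [← evW_gamP place0 spA hs]
      exact place0_rels spA (List.mem_append_right _ List.mem_cons_self)
    have hB : evG (spB.map (place place0)) = 1 := by
      rw [← evW_gamP place0 spB hs']
      exact spider_other place0_rels
    have h := spiderTurns_ok P hP
    simp only [spiderTurns, List.any_eq_true, Bool.or_eq_true, decide_eq_true_eq] at h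
    obtain ⟨k, -, h | h⟩ := h <;> rw [evW_gamP P spA hs, h]
    · exact evG_rotate hA k
    · exact evG_rotate hB k

/-- The printed form of an arm relation. -/
theorem arm_rel {P : List Cfsg.Spor.Bimonster.Gen} (hP : P ∈ places) :
    gx (place P 10) = (gx (place P 0) * gx (place P 1) * gx (place P 5) * gx (place P 7) *
      gx (place P 2) * gx (place P 6) * gx (place P 3)) ^ 9 := by
  have h := placed_end hP
  rw [zed, evW_repeat] at h
  simpa [evW, gamP, mul_assoc] using h

/-- All further relators follow from the spider relation. -/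
theorem extra_one : ∀ r ∈ Cfsg.Spor.Bimonster.extra, (PresentedGroup.mk _ r : Spider) = 1 := by
  intro r hr
  simp only [Cfsg.Spor.Bimonster.extra, List.mem_cons, List.not_mem_nil, or_false] at hr
  rcases hr with rfl | rfl | rfl | rfl | rfl | rfl | rfl
  · exact PresentedGroup.one_of_mem (Or.inr (by simp))
  all_goals rw [map_mul, map_inv, map_pow, mul_inv_eq_one]
  all_goals simp only [map_mul]
  · exact arm_rel (P := places.getD 0 []) (by decide)
  · exact arm_rel (P := places.getD 1 []) (by decide)
  · exact arm_rel (P := places.getD 2 []) (by decide)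
  · exact arm_rel (P := places.getD 3 []) (by decide)
  · exact arm_rel (P := places.getD 4 []) (by decide)
  · exact arm_rel (P := places.getD 5 []) (by decide)

end CfsgLib.Bimonster54
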