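import Mathlib

/-!
Certified coset facts: every step of a coset enumeration is checked as a closed walk.
-/

set_option autoImplicit false

namespace CfsgLib.Bimonster54

variable {G : Type*} [Group G]

/-- A binary tree of packed tables. -/
inductive Tree where
  | leaf (n : ℕ)
  | node (l r : Tree)

/-- The leaf with the given index, least significant bit first. -/
def Tree.leafAt : Tree → ℕ → ℕ
  | .leaf n, _ => n
  | .node l r, i => bif Nat.beq (i % 2) 0 then l.leafAt (i / 2) else r.leafAt (i / 2)

/-- Entry `i` of a table with `64` entries of `64` bits in each leaf. -/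
def Tree.entry (T : Tree) (i : ℕ) : ℕ :=
  T.leafAt (i / 64) / 18446744073709551616 ^ (i % 64) % 18446744073709551616

/-- Source of a fact. -/
def fu (e : ℕ) : ℕ := e % 262144
/-- Target of a fact. -/
def fv (e : ℕ) : ℕ := e / 262144 % 262144
/-- Letter of a fact, shifted by one; zero for an empty step. -/
def fx (e : ℕ) : ℕ := e / 68719476736 % 16
/-- Label of a fact. -/
def fd (e : ℕ) : ℕ := e / 1099511627776

/-- The letters of a fact. -/
def fl (e : ℕ) : List ℕ := bif Nat.beq (fx e) 0 then [] else [fx e - 1]

/-- Value of a word. -/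
def evW (γ : ℕ → G) : List ℕ → G
  | [] => 1
  | x :: w => γ x * evW γ w

theorem evW_append (γ : ℕ → G) : ∀ a b : List ℕ, evW γ (a ++ b) = evW γ a * evW γ b
  | [], b => by rw [List.nil_append, evW, one_mul]
  | x :: a, b => by rw [List.cons_append, evW, evW, evW_append γ a b, mul_assoc]

theorem evW_singleton (γ : ℕ → G) (x : ℕ) : evW γ [x] = γ x := by
  rw [evW, evW, mul_one]

theorem evW_reverse {γ : ℕ → G} (hγ : ∀ x, γ x * γ x = 1) :
    ∀ a : List ℕ, evW γ a.reverse = (evW γ a)⁻¹
  | [] => by rw [List.reverse_nil, evW, inv_one]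
  | x :: a => by
    rw [List.reverse_cons, evW_append, evW_reverse hγ a, evW_singleton, evW, mul_inv_rev,
      inv_eq_of_mul_eq_one_right (hγ x)]

/-- One step of free cancellation of involutions. -/
def push (x : ℕ) : List ℕ → List ℕ
  | [] => [x]
  | y :: w => bif Nat.beq x y then w else x :: y :: w

/-- Free cancellation of involutions. -/
def cancel : List ℕ → List ℕ
  | [] => []
  | x :: w => push x (cancel w)

theorem evW_push {γ : ℕ → G} (hγ : ∀ x, γ x * γ x = 1) (x : ℕ) :
    ∀ w : List ℕ, evW γ (push x w) = γ x * evW γ w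
  | [] => rfl
  | y :: w => by
    rw [push]
    cases h : Nat.beq x y
    · rfl
    · have hxy : x = y := Nat.eq_of_beq_eq_true h
      rw [cond_true, evW, ← mul_assoc, hxy, hγ y, one_mul]

theorem evW_cancel {γ : ℕ → G} (hγ : ∀ x, γ x * γ x = 1) :
    ∀ w : List ℕ, evW γ (cancel w) = evW γ w
  | [] => rfl
  | x :: w => by rw [cancel, evW_push hγ, evW_cancel hγ w, evW]

/-- Equality of lists of numbers as a Boolean. -/
def eqL : List ℕ → List ℕ → Bool
  | [], [] => true
  | x :: a, y :: b => Nat.beq x y && eqL a b
  | _, _ => false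

theorem eq_of_eqL : ∀ {a b : List ℕ}, eqL a b = true → a = b
  | [], [], _ => rfl
  | [], _ :: _, h => by simp [eqL] at h
  | _ :: _, [], h => by simp [eqL] at h
  | x :: a, y :: b, h => by
    simp only [eqL, Bool.and_eq_true] at h
    rw [Nat.eq_of_beq_eq_true h.1, eq_of_eqL h.2]

/-- A table of labels for a product; `none` where the product is not recorded. -/
structure Labels where
  mul : ℕ → ℕ → Option ℕ
  inv : ℕ → Option ℕ

/-- The data of an enumeration: table of facts, relators and labels. -/
structure Sheet where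
  T : Tree
  rels : List (List ℕ)
  L : Labels

/-- The label, end point and letters of one step. -/
def stepAt (S : Sheet) (code u : ℕ) : Option (ℕ × ℕ × List ℕ) :=
  let e := S.T.entry (code / 2)
  bif Nat.beq (code % 2) 0 then
    bif Nat.beq (fu e) u then some (fd e, fv e, fl e) else none
  else
    bif Nat.beq (fv e) u then
      match S.L.inv (fd e) with
      | some d => some (d, fu e, fl e)
      | none => none
    else none

/-- The label, end point and letters of a walk. -/
def walk (S : Sheet) : List ℕ → ℕ → Option (ℕ × ℕ × List ℕ)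
  | [], u => some (0, u, [])
  | c :: p, u =>
    match stepAt S c u with
    | none => none
    | some (d, u', a) =>
      match walk S p u' with
      | none => none
      | some (d', v, b) =>
        match S.L.mul d d' with
        | none => none
        | some d'' => some (d'', v, a ++ b)

/-- The codes of a packed walk. -/
def unpack : ℕ → ℕ → List ℕ
  | 0, _ => []
  | n + 1, c => c % 65536 :: unpack n (c / 65536)

/-- The relator word used by a justification. -/
def justWord (S : Sheet) (r k : ℕ) : List ℕ :=
  bif Nat.beq r 0 then [] else (S.rels.getD (r - 1) []).reverse.rotate k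

/-- Check of fact `i` against a justification packed in one number: relator, rotation, length
and steps. The steps have to be earlier facts. -/
def checkFact (S : Sheet) (i c : ℕ) : Bool :=
  let e := S.T.entry i
  let p := unpack (c / 16777216 % 4096) (c / 68719476736)
  p.all (fun q => Nat.blt (q / 2) i) &&
  match walk S p (fu e) with
  | none => false
  | some (d, v, W) =>
    Nat.beq d (fd e) && Nat.beq v (fv e) &&
      eqL (cancel (W ++ fl e)) (cancel (justWord S (c % 256) (c / 256 % 65536)))

/-- The checks for consecutive facts. -/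
def checkFrom (S : Sheet) : ℕ → List ℕ → Bool
  | _, [] => true
  | i, c :: cs => checkFact S i c && checkFrom S (i + 1) cs

/-- The hypotheses on the group side of a sheet. -/
structure Ctx (S : Sheet) (γ : ℕ → G) (w : ℕ → G) (P : ℕ → G → Prop) : Prop where
  invol : ∀ x, γ x * γ x = 1
  rels : ∀ r ∈ S.rels, evW γ r = 1
  one : P 0 1
  mul : ∀ {i j k g h}, S.L.mul i j = some k → P i g → P j h → P k (g * h)
  inv : ∀ {i k g}, S.L.inv i = some k → P i g → P k g⁻¹

/-- What a fact asserts. -/
def Holds (S : Sheet) (γ : ℕ → G) (w : ℕ → G) (P : ℕ → G → Prop) (i : ℕ) : Prop :=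
  ∃ h, P (fd (S.T.entry i)) h ∧
    w (fu (S.T.entry i)) * evW γ (fl (S.T.entry i)) = h * w (fv (S.T.entry i))

variable {S : Sheet} {γ : ℕ → G} {w : ℕ → G} {P : ℕ → G → Prop}

theorem evW_fl_inv (hc : Ctx S γ w P) (e : ℕ) : (evW γ (fl e))⁻¹ = evW γ (fl e) := by
  rw [fl]
  cases Nat.beq (fx e) 0
  · rw [cond_false, evW_singleton]
    exact inv_eq_of_mul_eq_one_right (hc.invol _)
  · rw [cond_true, evW, inv_one]

theorem stepAt_sound (hc : Ctx S γ w P) {code u d v : ℕ} {a : List ℕ}
    (hi : Holds S γ w P (code / 2)) (h : stepAt S code u = some (d, v, a)) :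
    ∃ g, P d g ∧ w u * evW γ a = g * w v := by
  obtain ⟨g, hg, he⟩ := hi
  rw [stepAt] at h
  cases hb : Nat.beq (code % 2) 0
  · simp only [hb, cond_false] at h
    cases hv : Nat.beq (fv (S.T.entry (code / 2))) u
    · simp [hv] at h
    · simp only [hv, cond_true] at h
      split at h
      · rename_i d' hd'
        simp only [Option.some.injEq, Prod.mk.injEq] at h
        obtain ⟨rfl, rfl, rfl⟩ := h
        refine ⟨g⁻¹, hc.inv hd' hg, ?_⟩
        rw [← Nat.eq_of_beq_eq_true hv, ← evW_fl_inv hc, eq_inv_mul_iff_mul_eq, ← mul_assoc,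
          ← he, mul_inv_cancel_right]
      · exact absurd h (by simp)
  · simp only [hb, cond_true] at h
    cases hv : Nat.beq (fu (S.T.entry (code / 2))) u
    · simp [hv] at h
    · simp only [hv, cond_true, Option.some.injEq, Prod.mk.injEq] at h
      obtain ⟨rfl, rfl, rfl⟩ := h
      exact ⟨g, hg, (Nat.eq_of_beq_eq_true hv) ▸ he⟩

theorem walk_sound (hc : Ctx S γ w P) :
    ∀ (p : List ℕ) {u d v : ℕ} {a : List ℕ}, (∀ q ∈ p, Holds S γ w P (q / 2)) →
      walk S p u = some (d, v, a) → ∃ g, P d g ∧ w u * evW γ a = g * w v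
  | [], u, d, v, a, _, h => by
    simp only [walk, Option.some.injEq, Prod.mk.injEq] at h
    obtain ⟨rfl, rfl, rfl⟩ := h
    exact ⟨1, hc.one, by rw [evW, mul_one, one_mul]⟩
  | c :: p, u, d, v, a, hp, h => by
    rw [walk] at h
    split at h
    · exact absurd h (by simp)
    rename_i d₁ u' a₁ h₁
    split at h
    · exact absurd h (by simp)
    rename_i d₂ v₂ b₂ h₂
    split at h
    · exact absurd h (by simp)
    rename_i d₃ h₃
    simp only [Option.some.injEq, Prod.mk.injEq] at h
    obtain ⟨rfl, rfl, rfl⟩ := h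
    obtain ⟨g, hg, eg⟩ := stepAt_sound hc (hp c (by simp)) h₁
    obtain ⟨g', hg', eg'⟩ := walk_sound hc p (fun q hq => hp q (by simp [hq])) h₂
    exact ⟨g * g', hc.mul h₃ hg hg', by rw [evW_append, ← mul_assoc, eg, mul_assoc, eg',
      mul_assoc]⟩

theorem evW_justWord (hc : Ctx S γ w P) (r k : ℕ) : evW γ (justWord S r k) = 1 := by
  rw [justWord]
  cases Nat.beq r 0
  · rw [cond_false]
    have h : evW γ (S.rels.getD (r - 1) []).reverse = 1 := by
      rw [evW_reverse hc.invol, inv_eq_one]
      by_cases hr : r - 1 < S.rels.length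
      · rw [List.getD_eq_getElem _ _ hr]
        exact hc.rels _ (List.getElem_mem hr)
      · rw [List.getD_eq_default _ _ (Nat.le_of_not_lt hr)]
        rfl
    rw [List.rotate_eq_drop_append_take_mod, evW_append]
    rw [← List.take_append_drop (k % _) (S.rels.getD (r - 1) []).reverse, evW_append] at h
    exact mul_eq_one_comm.1 h
  · rfl

theorem checkFact_sound (hc : Ctx S γ w P) {i c : ℕ} (hlt : ∀ j < i, Holds S γ w P j)
    (h : checkFact S i c = true) : Holds S γ w P i := by
  simp only [checkFact, Bool.and_eq_true, List.all_eq_true] at h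
  obtain ⟨hp, h⟩ := h
  split at h
  · exact absurd h (by simp)
  rename_i d v W hW
  simp only [Bool.and_eq_true] at h
  obtain ⟨⟨hd, hv⟩, hw⟩ := h
  obtain ⟨g, hg, eg⟩ := walk_sound hc _
    (fun q hq => hlt _ (by simpa [Nat.blt_eq] using hp q hq)) hW
  have hWx : evW γ W * evW γ (fl (S.T.entry i)) = 1 := by
    rw [← evW_append, ← evW_cancel hc.invol, eq_of_eqL hw, evW_cancel hc.invol, evW_justWord hc]
  rw [eq_inv_of_mul_eq_one_left hWx, evW_fl_inv hc] at eg
  rw [Nat.eq_of_beq_eq_true hd] at hg
  rw [Nat.eq_of_beq_eq_true hv] at eg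
  exact ⟨g, hg, eg⟩

theorem checkFrom_sound (hc : Ctx S γ w P) :
    ∀ (cs : List ℕ) (i : ℕ), (∀ j < i, Holds S γ w P j) → checkFrom S i cs = true →
      ∀ j < i + cs.length, Holds S γ w P j
  | [], i, hlt, _ => by simpa using hlt
  | c :: cs, i, hlt, h => by
    simp only [checkFrom, Bool.and_eq_true] at h
    intro j hj
    refine checkFrom_sound hc cs (i + 1) (fun j hj => ?_) h.2 j ?_
    · rcases Nat.lt_succ_iff_lt_or_eq.1 hj with hj | rfl
      · exact hlt j hj
      · exact checkFact_sound hc hlt h.1
    · simp only [List.length_cons] at hj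
      omega

end CfsgLib.Bimonster54
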