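import Mathlib
import Cfsg.Agent.Bimonster54.Walk

/-!
The eight dimensional space over the field with three elements and nine reflections on it.
-/

set_option autoImplicit false

namespace CfsgLib.Bimonster54

/-- The space acted on. -/
abbrev V : Type := Fin 8 → ZMod 3

/-- The first eight roots are the basis; the ninth is minus a fundamental weight. -/
def alphaList : List (List ℕ) :=
  [[1, 0, 0, 0, 0, 0, 0, 0], [0, 1, 0, 0, 0, 0, 0, 0], [0, 0, 1, 0, 0, 0, 0, 0],
   [0, 0, 0, 1, 0, 0, 0, 0], [0, 0, 0, 0, 1, 0, 0, 0], [0, 0, 0, 0, 0, 1, 0, 0],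
   [0, 0, 0, 0, 0, 0, 1, 0], [0, 0, 0, 0, 0, 0, 0, 1], [0, 0, 0, 0, 0, 2, 1, 1]]

/-- The inner products of the basis with the roots. -/
def coList : List (List ℕ) :=
  [[2, 2, 0, 0, 0, 2, 0, 2],
   [2, 2, 2, 0, 0, 0, 0, 0],
   [0, 2, 2, 2, 0, 0, 0, 0],
   [0, 0, 2, 2, 2, 0, 0, 0],
   [0, 0, 0, 2, 2, 0, 0, 0],
   [2, 0, 0, 0, 0, 2, 2, 0],
   [0, 0, 0, 0, 0, 2, 2, 0],
   [2, 0, 0, 0, 0, 0, 0, 2],
   [0, 0, 0, 0, 0, 0, 0, 2]]

/-- Coordinate `j` of root `g`. -/
def alpha (g j : ℕ) : ℕ := (alphaList.getD g []).getD j 0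

/-- Inner product of basis vector `i` with root `g`. -/
def coef (g i : ℕ) : ℕ := (coList.getD g []).getD i 0

/-- The linear form of root `g`. -/
def form (g : ℕ) : V →ₗ[ZMod 3] ZMod 3 where
  toFun v := ∑ i : Fin 8, v i * (coef g i.val : ZMod 3)
  map_add' v w := by simp [add_mul, Finset.sum_add_distrib]
  map_smul' a v := by simp [Finset.mul_sum, mul_assoc]

/-- The reflection in root `g`. -/
def refl (g : ℕ) : V →ₗ[ZMod 3] V where
  toFun v j := v j + 2 * form g v * (alpha g j.val : ZMod 3)
  map_add' v w := by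
    funext j
    simp only [map_add, Pi.add_apply]
    ring
  map_smul' a v := by
    funext j
    simp only [map_smul, Pi.smul_apply, smul_eq_mul, RingHom.id_apply]
    ring

theorem form_alpha (g : ℕ) (hg : g < 9) :
    (∑ i : Fin 8, (alpha g i.val : ZMod 3) * (coef g i.val : ZMod 3)) = 2 := by
  revert g hg
  decide +kernel

theorem alpha_large {g : ℕ} (hg : 9 ≤ g) (j : ℕ) : alpha g j = 0 := by
  rw [alpha, List.getD_eq_default (l := alphaList) _ (by simpa [alphaList] using hg), List.getD_nil]

theorem refl_refl (g : ℕ) (v : V) : refl g (refl g v) = v := by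
  funext j
  show (refl g v) j + 2 * form g (refl g v) * (alpha g j.val : ZMod 3) = v j
  by_cases hg : g < 9
  · have h : form g (refl g v) = -form g v := by
      show (∑ i : Fin 8, (v i + 2 * form g v * (alpha g i.val : ZMod 3)) * (coef g i.val : ZMod 3))
        = -form g v
      simp only [add_mul, Finset.sum_add_distrib, mul_assoc, ← Finset.mul_sum]
      rw [form_alpha g hg]
      show form g v + 2 * (form g v * 2) = -form g v
      have h3 : (6 : ZMod 3) = 0 := by decide
      linear_combination h3 * form g v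
    show v j + 2 * form g v * (alpha g j.val : ZMod 3) +
      2 * form g (refl g v) * (alpha g j.val : ZMod 3) = v j
    rw [h]
    ring
  · have h0 : (alpha g j.val : ZMod 3) = 0 := by rw [alpha_large (by omega), Nat.cast_zero]
    show v j + 2 * form g v * (alpha g j.val : ZMod 3) +
      2 * form g (refl g v) * (alpha g j.val : ZMod 3) = v j
    simp [h0]

/-- The permutation of the space given by a reflection. -/
def mperm (g : ℕ) : Equiv.Perm V :=
  ⟨refl g, refl g, refl_refl g, refl_refl g⟩

theorem mperm_mul_self (g : ℕ) : mperm g * mperm g = 1 :=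
  Equiv.ext (refl_refl g)

/-- The linear map of a word. -/
def lin : List ℕ → (V →ₗ[ZMod 3] V)
  | [] => LinearMap.id
  | g :: w => (refl g).comp (lin w)

theorem evW_mperm_apply : ∀ (w : List ℕ) (v : V), evW mperm w v = lin w v
  | [], _ => rfl
  | g :: w, v => by
    rw [evW, Equiv.Perm.mul_apply, evW_mperm_apply w v]
    rfl

/-- Digit `j` of a coded vector. -/
def dig (c j : ℕ) : ℕ := c / 3 ^ j % 3

/-- The vector with the given code. -/
def dec (c : ℕ) : V := fun j => (dig c j.val : ZMod 3)

/-- Code of a list of digits. -/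
def enc : List ℕ → ℕ
  | [] => 0
  | a :: l => a % 3 + 3 * enc l

theorem dig_enc : ∀ (l : List ℕ) (j : ℕ), dig (enc l) j = l.getD j 0 % 3
  | [], j => by simp [dig, enc]
  | a :: l, 0 => by
    simp only [dig, enc, pow_zero, Nat.div_one, List.getD_cons_zero]
    omega
  | a :: l, j + 1 => by
    have h := dig_enc l j
    simp only [dig, enc, List.getD_cons_succ] at h ⊢
    rw [pow_succ', ← Nat.div_div_eq_div_mul]
    rw [show (a % 3 + 3 * enc l) / 3 = enc l by omega]
    exact h

/-- The scalar of a reflection on a coded vector. -/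
def scal (g c : ℕ) : ℕ :=
  2 * (dig c 0 * coef g 0 + dig c 1 * coef g 1 + dig c 2 * coef g 2 + dig c 3 * coef g 3 +
    dig c 4 * coef g 4 + dig c 5 * coef g 5 + dig c 6 * coef g 6 + dig c 7 * coef g 7) % 3

/-- A reflection on coded vectors. -/
def stepN (g c : ℕ) : ℕ :=
  let s := scal g c
  enc [dig c 0 + s * alpha g 0, dig c 1 + s * alpha g 1, dig c 2 + s * alpha g 2,
    dig c 3 + s * alpha g 3, dig c 4 + s * alpha g 4, dig c 5 + s * alpha g 5,
    dig c 6 + s * alpha g 6, dig c 7 + s * alpha g 7]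

theorem dec_stepN (g c : ℕ) : dec (stepN g c) = refl g (dec c) := by
  funext j
  show (dig (stepN g c) j.val : ZMod 3) =
    dec c j + 2 * form g (dec c) * (alpha g j.val : ZMod 3)
  have hf : form g (dec c) = ∑ i : Fin 8, (dig c i.val : ZMod 3) * (coef g i.val : ZMod 3) := rfl
  rw [hf, stepN, dig_enc, ZMod.natCast_mod]
  simp only [Fin.sum_univ_eight, Fin.val_zero, Fin.val_one, Fin.val_two]
  fin_cases j <;>
    simp [dec, scal, Nat.cast_add, Nat.cast_mul, ZMod.natCast_mod]

/-- A word on coded vectors. -/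
def runN : List ℕ → ℕ → ℕ
  | [], c => c
  | g :: w, c => stepN g (runN w c)

theorem dec_runN : ∀ (w : List ℕ) (c : ℕ), dec (runN w c) = lin w (dec c)
  | [], _ => rfl
  | g :: w, c => by rw [runN, dec_stepN, dec_runN w c]; rfl

/-- Whether two words agree on the basis. -/
def sameAct (a b : List ℕ) : Bool :=
  [1, 3, 9, 27, 81, 243, 729, 2187].all fun c => Nat.beq (runN a c) (runN b c)

theorem single_eq_dec : ∀ i : Fin 8, (Pi.single i 1 : V) = dec (3 ^ i.val) := by
  decide +kernel

theorem sameAct_sound {a b : List ℕ} (h : sameAct a b = true) : evW mperm a = evW mperm b := by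
  have hl : lin a = lin b := by
    refine (Pi.basisFun (ZMod 3) (Fin 8)).ext fun i => ?_
    rw [Pi.basisFun_apply, single_eq_dec, ← dec_runN, ← dec_runN]
    simp only [sameAct, List.all_eq_true] at h
    rw [Nat.eq_of_beq_eq_true (h (3 ^ i.val) (by fin_cases i <;> simp))]
  refine Equiv.ext fun v => ?_
  rw [evW_mperm_apply, evW_mperm_apply, hl]

theorem dec_injective {a b : ℕ} (ha : a < 6561) (hb : b < 6561) (h : dec a = dec b) : a = b := by
  have hd : ∀ j : Fin 8, dig a j.val = dig b j.val := fun j => by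
    have hj := congrFun h j
    simp only [dec] at hj
    have := (ZMod.natCast_eq_natCast_iff' (dig a j.val) (dig b j.val) 3).1 hj
    simp only [dig, Nat.mod_mod] at this ⊢
    exact this
  have h0 := hd 0
  have h1 := hd 1
  have h2 := hd 2
  have h3 := hd 3
  have h4 := hd 4
  have h5 := hd 5
  have h6 := hd 6
  have h7 := hd 7
  simp only [dig, Fin.val_zero, Fin.val_one, Fin.val_two,
    show ((3 : Fin 8) : ℕ) = 3 from rfl, show ((4 : Fin 8) : ℕ) = 4 from rfl,
    show ((5 : Fin 8) : ℕ) = 5 from rfl, show ((6 : Fin 8) : ℕ) = 6 from rfl,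
    show ((7 : Fin 8) : ℕ) = 7 from rfl] at h0 h1 h2 h3 h4 h5 h6 h7
  norm_num at h0 h1 h2 h3 h4 h5 h6 h7
  omega

end CfsgLib.Bimonster54
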