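import Mathlib
import Cfsg.Agent.Bimonster54.Walk
import Cfsg.Agent.Bimonster54.Model

/-!
One level of a chain of subgroups, and closed words from a certified coset table.
-/

set_option autoImplicit false

namespace CfsgLib.Bimonster54

variable {G : Type*} [Group G]

/-- Fact `i` is the definition of node `i + 1` for `i < D` and a generator of the subgroup for
`D ≤ i < D + ns`. -/
def baseAt (S : Sheet) (D ns i : ℕ) : Bool :=
  let e := S.T.entry i
  bif Nat.blt i D then Nat.ble (fu e) i && Nat.beq (fv e) (i + 1) && Nat.beq (fd e) 0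
  else !Nat.blt i (D + ns) || (Nat.beq (fu e) 0 && Nat.beq (fv e) 0)

/-- A check for `n` consecutive indices. -/
def allFrom (f : ℕ → Bool) : ℕ → ℕ → Bool
  | _, 0 => true
  | a, n + 1 => f a && allFrom f (a + 1) n

theorem allFrom_spec {f : ℕ → Bool} : ∀ {n a : ℕ}, allFrom f a n = true →
    ∀ i, a ≤ i → i < a + n → f i = true
  | 0, a, _, i, h₁, h₂ => by omega
  | n + 1, a, h, i, h₁, h₂ => by
    simp only [allFrom, Bool.and_eq_true] at h
    rcases Nat.lt_or_ge a i with hi | hi
    · exact allFrom_spec h.2 i hi (by omega)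
    · rw [show i = a by omega]
      exact h.1

/-- The group element of a node. -/
def nodeVal (S : Sheet) (γ : ℕ → G) : ℕ → G
  | 0 => 1
  | i + 1 =>
    if fu (S.T.entry i) ≤ i then nodeVal S γ (fu (S.T.entry i)) * evW γ (fl (S.T.entry i)) else 1
termination_by k => k

theorem nodeVal_zero (S : Sheet) (γ : ℕ → G) : nodeVal S γ 0 = 1 := by
  rw [nodeVal]

theorem base_holds {S : Sheet} {γ : ℕ → G} {P : ℕ → G → Prop} {D ns : ℕ}
    (hc : Ctx S γ (nodeVal S γ) P) (hb : allFrom (baseAt S D ns) 0 (D + ns) = true)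
    (hs : ∀ i, D ≤ i → i < D + ns → P (fd (S.T.entry i)) (evW γ (fl (S.T.entry i)))) :
    ∀ i < D + ns, Holds S γ (nodeVal S γ) P i := by
  intro i hi
  have h := allFrom_spec hb i (Nat.zero_le _) (by omega)
  simp only [baseAt] at h
  by_cases hD : i < D
  · rw [show Nat.blt i D = true by simpa [Nat.blt_eq] using hD, cond_true] at h
    simp only [Bool.and_eq_true, Nat.ble_eq] at h
    obtain ⟨⟨h₁, h₂⟩, h₃⟩ := h
    refine ⟨1, by rw [Nat.eq_of_beq_eq_true h₃]; exact hc.one, ?_⟩
    rw [one_mul, Nat.eq_of_beq_eq_true h₂, nodeVal.eq_2, if_pos h₁]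
  · rw [show Nat.blt i D = false by simpa [← Bool.not_eq_true, Nat.blt_eq] using hD, cond_false,
      show Nat.blt i (D + ns) = true by simpa [Nat.blt_eq] using hi] at h
    simp only [Bool.not_true, Bool.false_or, Bool.and_eq_true] at h
    refine ⟨_, hs i (by omega) hi, ?_⟩
    rw [Nat.eq_of_beq_eq_true h.1, Nat.eq_of_beq_eq_true h.2, nodeVal_zero, one_mul, mul_one]

/-- Membership of a number in a list, as a Boolean. -/
def memN (x : ℕ) : List ℕ → Bool
  | [] => false
  | y :: l => Nat.beq x y || memN x l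

theorem memN_iff {x : ℕ} : ∀ {l : List ℕ}, memN x l = true ↔ x ∈ l
  | [] => by simp [memN]
  | y :: l => by
    simp only [memN, Bool.or_eq_true, List.mem_cons, memN_iff (l := l), Nat.beq_eq]

/-- The letters of the generators of the subgroup are among `sub`. -/
def seedAt (S : Sheet) (sub : List ℕ) (i : ℕ) : Bool :=
  let e := S.T.entry i
  Nat.beq (fd e) 0 && !Nat.beq (fx e) 0 && memN (fx e - 1) sub

/-- The tracked code of a node. -/
def code (pts : Tree) (k : ℕ) : ℕ := pts.entry k / 2

/-- Whether a node is kept. -/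
def live (pts : Tree) (k : ℕ) : Bool := Nat.beq (pts.entry k % 2) 1

/-- The code of a new node comes from the code of its parent. -/
def ptAt (S : Sheet) (pts : Tree) (i : ℕ) : Bool :=
  let e := S.T.entry i
  Nat.beq (code pts (i + 1)) (runN (fl e) (code pts (fu e)))

/-- The kept nodes other than the first have their code outside `X`. -/
def sepAt (pts : Tree) (X : List ℕ) (k : ℕ) : Bool :=
  Nat.beq k 0 || !live pts k || !memN (code pts k) X

/-- A packed walk that begins at `k`, reads the letter `x` and stops at a kept node. -/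
def closeAt (S : Sheet) (pts : Tree) (D N k x c : ℕ) : Bool :=
  (unpack (c % 256) (c / 256)).all (fun p => Nat.blt (p / 2) N) &&
  match walk S (unpack (c % 256) (c / 256)) k with
  | none => false
  | some (_, v, W) => live pts v && Nat.ble v D && eqL (cancel W) [x]

/-- The packed walks of one node. -/
def closeNode (S : Sheet) (pts : Tree) (D N k : ℕ) : List ℕ → List ℕ → Bool
  | [], _ => true
  | _ :: _, [] => false
  | x :: xs, c :: cs => closeAt S pts D N k x c && closeNode S pts D N k xs cs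

theorem closeNode_spec {S : Sheet} {pts : Tree} {D N k : ℕ} : ∀ {xs cs : List ℕ},
    closeNode S pts D N k xs cs = true → ∀ x ∈ xs, ∃ c, closeAt S pts D N k x c = true
  | [], _, _, x, hx => absurd hx (by simp)
  | _ :: _, [], h, _, _ => by simp [closeNode] at h
  | y :: xs, c :: cs, h, x, hx => by
    simp only [closeNode, Bool.and_eq_true] at h
    rcases List.mem_cons.1 hx with rfl | hx
    · exact ⟨c, h.1⟩
    · exact closeNode_spec h.2 x hx

/-- The packed walks of consecutive nodes. -/
def closeFrom (S : Sheet) (pts : Tree) (D N : ℕ) (gens : List ℕ) : ℕ → List (List ℕ) → Bool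
  | _, [] => true
  | k, cs :: l => (!live pts k || closeNode S pts D N k gens cs) && closeFrom S pts D N gens (k + 1) l

theorem closeFrom_spec {S : Sheet} {pts : Tree} {D N : ℕ} {gens : List ℕ} :
    ∀ {l : List (List ℕ)} {a : ℕ}, closeFrom S pts D N gens a l = true →
      ∀ k, a ≤ k → k < a + l.length → live pts k = true → ∀ x ∈ gens,
        ∃ c, closeAt S pts D N k x c = true
  | [], a, _, k, h₁, h₂ => by simp at h₂; omega
  | cs :: l, a, h, k, h₁, h₂ => by
    simp only [closeFrom, Bool.and_eq_true] at h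
    simp only [List.length_cons] at h₂
    rcases Nat.lt_or_ge a k with hk | hk
    · exact closeFrom_spec h.2 k hk (by omega)
    · intro hl x hx
      rw [show k = a by omega] at hl ⊢
      have h1 := h.1
      rw [hl, Bool.not_true, Bool.false_or] at h1
      exact closeNode_spec h1 x hx

/-- All labels are zero. -/
def plain : Labels := ⟨fun _ _ => some 0, fun _ => some 0⟩

/-- A homomorphism is injective on the subgroup of the listed generators. -/
def FaithfulOn (φ : G →* Equiv.Perm V) (γ : ℕ → G) (gens : List ℕ) : Prop :=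
  ∀ g ∈ Subgroup.closure (γ '' {x | x ∈ gens}), φ g = 1 → g = 1

theorem faithfulOn_nil (φ : G →* Equiv.Perm V) (γ : ℕ → G) : FaithfulOn φ γ [] := by
  intro g hg _
  simpa using hg

theorem evW_map {γ : ℕ → G} {φ : G →* Equiv.Perm V} (hφ : ∀ x, φ (γ x) = mperm x) :
    ∀ W : List ℕ, φ (evW γ W) = evW mperm W
  | [] => map_one φ
  | x :: W => by rw [evW, map_mul, hφ, evW_map hφ W, evW]

theorem evW_mem {γ : ℕ → G} {gens : List ℕ} {W : List ℕ} (h : ∀ x ∈ W, x ∈ gens) :
    evW γ W ∈ Subgroup.closure (γ '' {x | x ∈ gens}) := by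
  induction W with
  | nil => exact one_mem _
  | cons y W ih =>
    exact mul_mem (Subgroup.subset_closure ⟨y, h y (by simp), rfl⟩)
      (ih fun x hx => h x (by simp [hx]))

theorem eq_of_sameAct {γ : ℕ → G} {φ : G →* Equiv.Perm V} {gens : List ℕ}
    (hγ : ∀ x, γ x * γ x = 1) (hφ : ∀ x, φ (γ x) = mperm x) (hf : FaithfulOn φ γ gens)
    {a b : List ℕ} (ha : a.all (memN · gens) = true) (hb : b.all (memN · gens) = true)
    (h : sameAct a b = true) : evW γ a = evW γ b := by
  simp only [List.all_eq_true, memN_iff] at ha hb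
  refine mul_inv_eq_one.1 (hf _ (mul_mem (evW_mem ha) (inv_mem (evW_mem hb))) ?_)
  rw [map_mul, map_inv, evW_map hφ, evW_map hφ, sameAct_sound h, mul_inv_cancel]

theorem runN_lt {w : List ℕ} {c : ℕ} (hc : c < 6561) : runN w c < 6561 := by
  cases w with
  | nil => exact hc
  | cons g w =>
    simp only [runN, stepN, enc]
    omega

theorem setStable {γ : ℕ → G} {φ : G →* Equiv.Perm V} {sub X : List ℕ}
    (hγ : ∀ x, γ x * γ x = 1) (hφ : ∀ x, φ (γ x) = mperm x)
    (hX : ∀ s ∈ X, ∀ x ∈ sub, stepN x s ∈ X) {h : G}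
    (hh : h ∈ Subgroup.closure (γ '' {x | x ∈ sub})) :
    ∀ s ∈ X, (∃ t ∈ X, φ h (dec s) = dec t) ∧ ∃ t ∈ X, (φ h)⁻¹ (dec s) = dec t := by
  induction hh using Subgroup.closure_induction with
  | mem y hy =>
    obtain ⟨x, hx, rfl⟩ := hy
    intro s hs
    rw [← map_inv, inv_eq_of_mul_eq_one_right (hγ x), hφ]
    exact ⟨⟨_, hX s hs x hx, (dec_stepN x s).symm⟩, ⟨_, hX s hs x hx, (dec_stepN x s).symm⟩⟩
  | one => exact fun s hs => by simp only [map_one, inv_one]; exact ⟨⟨s, hs, rfl⟩, ⟨s, hs, rfl⟩⟩
  | mul a b _ _ iha ihb =>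
    intro s hs
    rw [map_mul, mul_inv_rev, Equiv.Perm.mul_apply, Equiv.Perm.mul_apply]
    refine ⟨?_, ?_⟩
    · obtain ⟨t, ht, e⟩ := (ihb s hs).1
      rw [e]
      exact (iha t ht).1
    · obtain ⟨t, ht, e⟩ := (iha s hs).2
      rw [e]
      exact (ihb t ht).2
  | inv a _ iha =>
    intro s hs
    rw [map_inv, inv_inv]
    exact ⟨(iha s hs).2, (iha s hs).1⟩

/-- One level: faithfulness climbs from `sub` to `gens`. -/
theorem level {γ : ℕ → G} {φ : G →* Equiv.Perm V} {sub gens X : List ℕ} {q : ℕ}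
    {S : Sheet} {pts : Tree} {D ns : ℕ} {cs : List ℕ} {fin : List (List ℕ)}
    (hL : S.L = plain) (hγ : ∀ x, γ x * γ x = 1) (hφ : ∀ x, φ (γ x) = mperm x)
    (hrel : ∀ r ∈ S.rels, evW γ r = 1) (hf : FaithfulOn φ γ sub)
    (hb : allFrom (baseAt S D ns) 0 (D + ns) = true)
    (hs : allFrom (seedAt S sub) D ns = true)
    (hchk : checkFrom S (D + ns) cs = true)
    (hpt : allFrom (ptAt S pts) 0 D = true)
    (hsep : allFrom (sepAt pts X) 0 (D + 1) = true)
    (hX : (X.all fun s => Nat.blt s 6561 && sub.all fun x => memN (stepN x s) X) = true)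
    (hq : (memN q X && Nat.beq (code pts 0) q && live pts 0) = true)
    (hlen : fin.length = D + 1)
    (hclose : closeFrom S pts D (D + ns + cs.length) gens 0 fin = true) :
    FaithfulOn φ γ gens := by
  let H := Subgroup.closure (γ '' {x | x ∈ sub})
  let P : ℕ → G → Prop := fun _ h => h ∈ H
  let w := nodeVal S γ
  have hc : Ctx S γ w P :=
    ⟨hγ, hrel, one_mem H, fun _ hg hh => mul_mem hg hh, fun _ hg => inv_mem hg⟩
  have hseed : ∀ i, D ≤ i → i < D + ns → P (fd (S.T.entry i)) (evW γ (fl (S.T.entry i))) := by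
    intro i h₁ h₂
    have h := allFrom_spec hs i h₁ h₂
    simp only [seedAt, Bool.and_eq_true, Bool.not_eq_true', memN_iff] at h
    rw [fl, h.1.2, cond_false, evW_singleton]
    exact Subgroup.subset_closure ⟨_, h.2, rfl⟩
  have hall : ∀ i < D + ns + cs.length, Holds S γ w P i :=
    checkFrom_sound hc cs (D + ns) (base_holds hc hb hseed) hchk
  simp only [Bool.and_eq_true, memN_iff] at hq
  obtain ⟨⟨hqX, hq0⟩, hlive0⟩ := hq
  simp only [List.all_eq_true, Bool.and_eq_true, memN_iff, Nat.blt_eq] at hX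
  -- the codes follow the nodes
  have hcode : ∀ k, k ≤ D → code pts k < 6561 ∧ (φ (w k))⁻¹ (dec q) = dec (code pts k) := by
    intro k
    induction k using Nat.strong_induction_on with
    | _ k ih =>
      intro hk
      rcases k with _ | i
      · rw [Nat.eq_of_beq_eq_true hq0]
        exact ⟨(hX q hqX).1, by rw [show w 0 = 1 from nodeVal_zero S γ, map_one, inv_one]; rfl⟩
      · have hb' := allFrom_spec hb i (Nat.zero_le _) (by omega)
        simp only [baseAt, show Nat.blt i D = true by simpa [Nat.blt_eq] using hk, cond_true,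
          Bool.and_eq_true, Nat.ble_eq] at hb'
        have hp := Nat.eq_of_beq_eq_true (allFrom_spec hpt i (Nat.zero_le _) (by omega))
        have hu := ih (fu (S.T.entry i)) (by omega) (by omega)
        refine ⟨hp ▸ runN_lt hu.1, ?_⟩
        rw [show w (i + 1) = w (fu (S.T.entry i)) * evW γ (fl (S.T.entry i)) by
          show nodeVal S γ (i + 1) = _
          rw [nodeVal.eq_2, if_pos hb'.1.1], map_mul, mul_inv_rev, Equiv.Perm.mul_apply, hu.2,
          hp, dec_runN, ← evW_mperm_apply, ← map_inv, evW_fl_inv hc, evW_map hφ]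
  -- the cosets exhaust the subgroup
  let K : G → Prop := fun g => ∃ h ∈ H, ∃ k, k ≤ D ∧ live pts k = true ∧ g = h * w k
  have hstep : ∀ g : G, K g → ∀ x ∈ gens, K (g * γ x) := by
    rintro g ⟨h, hh, k, hkD, hk, rfl⟩ x hx
    obtain ⟨c, hcl⟩ := closeFrom_spec hclose k (Nat.zero_le _) (by omega) hk x hx
    simp only [closeAt, Bool.and_eq_true, List.all_eq_true, Nat.blt_eq] at hcl
    obtain ⟨hp, hcl⟩ := hcl
    split at hcl
    · exact absurd hcl (by simp)
    rename_i d v W hW
    simp only [Bool.and_eq_true, Nat.ble_eq] at hcl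
    obtain ⟨g', hg', eg⟩ := walk_sound hc _ (fun p hpm => hall _ (hp p hpm)) hW
    refine ⟨h * g', mul_mem hh hg', v, hcl.1.2, hcl.1.1, ?_⟩
    rw [← evW_cancel hγ, eq_of_eqL hcl.2, evW_singleton] at eg
    rw [mul_assoc, eg, ← mul_assoc]
  intro g hg hker
  have hgK : K g := by
    clear hker
    induction hg using Subgroup.closure_induction_right with
    | one => exact ⟨1, one_mem H, 0, Nat.zero_le _, hlive0,
        by rw [show w 0 = 1 from nodeVal_zero S γ, mul_one]⟩
    | mul_right x _ y hy ih =>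
      obtain ⟨z, hz, rfl⟩ := hy
      exact hstep x ih z hz
    | mul_inv_cancel x _ y hy ih =>
      obtain ⟨z, hz, rfl⟩ := hy
      rw [inv_eq_of_mul_eq_one_right (hγ z)]
      exact hstep x ih z hz
  obtain ⟨h, hh, k, hkD, hk, rfl⟩ := hgK
  have hXh := setStable hγ hφ (fun s hs => (hX s hs).2) hh q hqX
  rcases Nat.eq_zero_or_pos k with rfl | hk0
  · rw [show w 0 = 1 from nodeVal_zero S γ, mul_one] at hker ⊢
    exact hf h hh hker
  · exfalso
    have hsk := allFrom_spec hsep k (Nat.zero_le _) (by omega)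
    rw [sepAt, show Nat.beq k 0 = false by simpa [← Bool.not_eq_true, Nat.beq_eq] using hk0.ne',
      hk] at hsk
    simp only [Bool.not_true, Bool.false_or, Bool.not_eq_true', ← Bool.not_eq_true, memN_iff] at hsk
    rw [map_mul, mul_eq_one_iff_eq_inv] at hker
    obtain ⟨t, ht, e⟩ := hXh.1
    have hck := hcode k hkD
    rw [hker, hck.2] at e
    exact hsk (by rwa [dec_injective hck.1 (hX t ht).1 e])

end CfsgLib.Bimonster54
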