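import Mathlib
import Cfsg.Agent.Bimonster54.Level

/-!
Closed walks labelled by the elements of a subgroup with a faithful model.
-/

set_option autoImplicit false

namespace CfsgLib.Bimonster54

variable {G : Type*} [Group G]

/-- Lookup in a list of keys and values. -/
def findKey (key : ℕ) : List (ℕ × ℕ) → Option ℕ
  | [] => none
  | p :: l => bif Nat.beq p.1 key then some p.2 else findKey key l

theorem mem_of_findKey {key k : ℕ} : ∀ {l : List (ℕ × ℕ)}, findKey key l = some k → (key, k) ∈ l
  | [], h => by simp [findKey] at h
  | p :: l, h => by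
    rw [findKey] at h
    cases hb : Nat.beq p.1 key
    · rw [hb, cond_false] at h
      exact List.mem_cons_of_mem _ (mem_of_findKey h)
    · rw [hb, cond_true, Option.some.injEq] at h
      rw [← Nat.eq_of_beq_eq_true hb, ← h]
      exact List.mem_cons_self

/-- Labels from tables; label zero is the unit. -/
def tabled (mt it : List (ℕ × ℕ)) : Labels where
  mul i j := bif Nat.beq i 0 then some j else bif Nat.beq j 0 then some i else
    bif Nat.blt j 4096 then findKey (i * 4096 + j) mt else none
  inv i := bif Nat.beq i 0 then some 0 else findKey i it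

/-- A word in the first nine letters. -/
def small (a : List ℕ) : Bool := a.all fun x => Nat.blt x 9

/-- The tables agree with the model. -/
def tablesOK (pal : List (List ℕ)) (mt it : List (ℕ × ℕ)) : Bool :=
  eqL (pal.getD 0 []) [] && pal.all small &&
    (mt.all fun p => sameAct (pal.getD (p.1 / 4096) [] ++ pal.getD (p.1 % 4096) []) (pal.getD p.2 [])) &&
    (it.all fun p => sameAct (pal.getD p.1 []).reverse (pal.getD p.2 []))

/-- The seeds agree with the model. -/
def seedPal (S : Sheet) (pal : List (List ℕ)) (i : ℕ) : Bool :=
  let e := S.T.entry i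
  small (fl e) && sameAct (fl e) (pal.getD (fd e) [])

/-- A packed closed walk with its start, its label and the word it has to read. -/
def closedAt (S : Sheet) (N k c d : ℕ) (W₀ : List ℕ) : Bool :=
  (unpack (c % 4096) (c / 4096)).all (fun p => Nat.blt (p / 2) N) &&
  match walk S (unpack (c % 4096) (c / 4096)) k with
  | none => false
  | some (d', v, W) => Nat.beq v k && Nat.beq d' d && eqL (cancel W) (cancel W₀)

/-- A certified closed walk gives an identity in the group. -/
theorem closed_word {γ : ℕ → G} {S : Sheet} {pal : List (List ℕ)} {mt it : List (ℕ × ℕ)}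
    {D ns k c d : ℕ} {cs : List ℕ} {W₀ : List ℕ}
    (hL : S.L = tabled mt it) (hγ : ∀ x, γ x * γ x = 1)
    (hsame : ∀ a b : List ℕ, small a = true → small b = true → sameAct a b = true →
      evW γ a = evW γ b)
    (hrel : ∀ r ∈ S.rels, evW γ r = 1)
    (htab : tablesOK pal mt it = true)
    (hb : allFrom (baseAt S D ns) 0 (D + ns) = true)
    (hs : allFrom (seedPal S pal) D ns = true)
    (hchk : checkFrom S (D + ns) cs = true)
    (hcl : closedAt S (D + ns + cs.length) k c d W₀ = true) :
    nodeVal S γ k * evW γ W₀ = evW γ (pal.getD d []) * nodeVal S γ k := by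
  simp only [tablesOK, Bool.and_eq_true, List.all_eq_true] at htab
  obtain ⟨⟨⟨h0, hsm⟩, hmt⟩, hit⟩ := htab
  have hsmall : ∀ i, small (pal.getD i []) = true := by
    intro i
    by_cases hi : i < pal.length
    · rw [List.getD_eq_getElem _ _ hi]
      exact hsm _ (List.getElem_mem hi)
    · rw [List.getD_eq_default _ _ (Nat.le_of_not_lt hi)]
      rfl
  have happ : ∀ a b : List ℕ, small a = true → small b = true → small (a ++ b) = true := by
    intro a b ha hb
    simp only [small, List.all_append, Bool.and_eq_true]
    exact ⟨ha, hb⟩
  let val : ℕ → G := fun i => evW γ (pal.getD i [])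
  let P : ℕ → G → Prop := fun i g => g = val i
  have hval0 : val 0 = 1 := by
    show evW γ (pal.getD 0 []) = 1
    rw [eq_of_eqL h0, evW]
  have hc : Ctx S γ (nodeVal S γ) P := by
    refine ⟨hγ, hrel, hval0.symm, ?_, ?_⟩
    · intro i j m g h hm hg hh
      rw [hL] at hm
      simp only [tabled] at hm
      rw [show g = val i from hg, show h = val j from hh]
      show val i * val j = val m
      cases hi : Nat.beq i 0
      · rw [hi, cond_false] at hm
        cases hj : Nat.beq j 0
        · rw [hj, cond_false] at hm
          cases hj' : Nat.blt j 4096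
          · simp [hj'] at hm
          · rw [hj', cond_true] at hm
            replace hj' : j < 4096 := by simpa [Nat.blt_eq] using hj'
            have hp := hmt _ (mem_of_findKey hm)
            simp only [show (i * 4096 + j) / 4096 = i by omega,
              show (i * 4096 + j) % 4096 = j by omega] at hp
            show evW γ (pal.getD i []) * evW γ (pal.getD j []) = evW γ (pal.getD m [])
            rw [← evW_append]
            exact hsame _ _ (happ _ _ (hsmall i) (hsmall j)) (hsmall m) hp
        · rw [hj, cond_true, Option.some.injEq] at hm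
          rw [Nat.eq_of_beq_eq_true hj, hval0, mul_one, hm]
      · rw [hi, cond_true, Option.some.injEq] at hm
        rw [Nat.eq_of_beq_eq_true hi, hval0, one_mul, hm]
    · intro i m g hm hg
      rw [hL] at hm
      simp only [tabled] at hm
      rw [show g = val i from hg]
      show (val i)⁻¹ = val m
      cases hi : Nat.beq i 0
      · rw [hi, cond_false] at hm
        show (evW γ (pal.getD i []))⁻¹ = evW γ (pal.getD m [])
        rw [← evW_reverse hγ]
        refine hsame _ _ ?_ (hsmall m) (hit _ (mem_of_findKey hm))
        have := hsmall i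
        simpa only [small, List.all_reverse] using this
      · rw [hi, cond_true, Option.some.injEq] at hm
        rw [Nat.eq_of_beq_eq_true hi, hval0, inv_one, ← hm, hval0]
  have hseed : ∀ i, D ≤ i → i < D + ns → P (fd (S.T.entry i)) (evW γ (fl (S.T.entry i))) := by
    intro i h₁ h₂
    have h := allFrom_spec hs i h₁ h₂
    simp only [seedPal, Bool.and_eq_true] at h
    exact hsame _ _ h.1 (hsmall _) h.2
  have hall := checkFrom_sound hc cs (D + ns) (base_holds hc hb hseed) hchk
  simp only [closedAt, Bool.and_eq_true, List.all_eq_true, Nat.blt_eq] at hcl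
  obtain ⟨hp, hcl⟩ := hcl
  split at hcl
  · exact absurd hcl (by simp)
  rename_i d' v W hW
  simp only [Bool.and_eq_true] at hcl
  obtain ⟨g, hg, eg⟩ := walk_sound hc _ (fun p hpm => hall _ (hp p hpm)) hW
  rw [← evW_cancel hγ W₀, ← eq_of_eqL hcl.2, evW_cancel hγ, eg, show g = val d' from hg,
    Nat.eq_of_beq_eq_true hcl.1.1, Nat.eq_of_beq_eq_true hcl.1.2]

end CfsgLib.Bimonster54
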