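import Mathlib
import Cfsg.Agent.Bimonster54.Closed

/-!
Gluing of checks done in pieces.
-/

set_option autoImplicit false

namespace CfsgLib.Bimonster54

theorem checkFrom_glue {S : Sheet} : ∀ {a b : List ℕ} {i j : ℕ}, checkFrom S i a = true →
    j = i + a.length → checkFrom S j b = true → checkFrom S i (a ++ b) = true
  | [], b, i, j, _, hj, hb => by
    rw [List.nil_append]
    rwa [show i = j by simp at hj; omega]
  | c :: a, b, i, j, ha, hj, hb => by
    simp only [checkFrom, Bool.and_eq_true] at ha
    simp only [List.cons_append, checkFrom, Bool.and_eq_true]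
    exact ⟨ha.1, checkFrom_glue ha.2 (by simp at hj; omega) hb⟩

theorem closeFrom_glue {S : Sheet} {pts : Tree} {D N : ℕ} {gens : List ℕ} :
    ∀ {a b : List (List ℕ)} {i j : ℕ}, closeFrom S pts D N gens i a = true → j = i + a.length →
      closeFrom S pts D N gens j b = true → closeFrom S pts D N gens i (a ++ b) = true
  | [], b, i, j, _, hj, hb => by
    rw [List.nil_append]
    rwa [show i = j by simp at hj; omega]
  | c :: a, b, i, j, ha, hj, hb => by
    simp only [closeFrom, Bool.and_eq_true] at ha
    simp only [List.cons_append, closeFrom, Bool.and_eq_true]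
    exact ⟨ha.1, closeFrom_glue ha.2 (by simp at hj; omega) hb⟩

theorem allFrom_glue {f : ℕ → Bool} : ∀ {a m n k j : ℕ}, allFrom f a m = true → j = a + m →
    allFrom f j n = true → k = m + n → allFrom f a k = true
  | a, 0, n, k, j, _, hj, hb, hk => by
    rw [show k = n by omega, show a = j by omega]
    exact hb
  | a, m + 1, n, k, j, ha, hj, hb, hk => by
    simp only [allFrom, Bool.and_eq_true] at ha
    rw [show k = (m + n) + 1 by omega, allFrom, Bool.and_eq_true]
    exact ⟨ha.1, allFrom_glue ha.2 (by omega) hb rfl⟩

/-- A rotation of the reverse of a relator has value one. -/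
theorem evW_just {G : Type*} [Group G] {γ : ℕ → G} {S : Sheet} (hγ : ∀ x, γ x * γ x = 1)
    (hrel : ∀ r ∈ S.rels, evW γ r = 1) (r k : ℕ) : evW γ (justWord S r k) = 1 :=
  evW_justWord (w := fun _ => (1 : G)) (P := fun _ _ => True)
    ⟨hγ, hrel, trivial, fun _ _ _ => trivial, fun _ _ => trivial⟩ r k

end CfsgLib.Bimonster54
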